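import Mathlib
import Cfsg.Agent.Lib.Helper74.O720.Defs

set_option autoImplicit false
set_option linter.unusedSectionVars false
set_option linter.deprecated false

namespace Cfsg.Agent.Lib.Helper74.O720

variable {G : Type*} [Group G] [Finite G] [IsSimpleGroup G]

theorem P9_fact3 : Fact (Nat.Prime 3) := ⟨Nat.prime_three⟩

theorem P9_fac : (720 : ℕ).factorization 3 = 2 := by
  have h1 : (720 : ℕ) = 3 ^ 2 * 80 := by norm_num
  rw [h1, Nat.factorization_mul (by norm_num) (by norm_num)]
  have h2 : (80 : ℕ).factorization 3 = 0 :=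
    Nat.factorization_eq_zero_of_not_dvd (by norm_num)
  rw [Nat.Prime.factorization_pow (by norm_num : Nat.Prime 3)]
  simp [h2]

/-- [P9] `Sylow.card_eq_multiplicity`, `720 = 3^2 * 80`. -/
theorem card_P (h : Nat.card G = 720) (P : Sylow 3 G) : Nat.card (P : Subgroup G) = 9 := by
  have := P9_fact3
  rw [Sylow.card_eq_multiplicity, h, P9_fac]; norm_num

/-- [P9c] `IsPGroup.commutative_of_card_eq_prime_sq`. -/
theorem comm_P (h : Nat.card G = 720) (P : Sylow 3 G) :
    ∀ x ∈ (P : Subgroup G), ∀ y ∈ (P : Subgroup G), x * y = y * x := by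
  have := P9_fact3
  intro x hx y hy
  have h9 : Nat.card (P : Subgroup G) = 3 ^ 2 := by rw [card_P h P]; norm_num
  have := IsPGroup.commutative_of_card_eq_prime_sq h9 ⟨x, hx⟩ ⟨y, hy⟩
  exact congrArg Subtype.val this

/-- [P9n] `Sylow.card_eq_index_normalizer`, `Subgroup.card_mul_index`. -/
theorem card_Nz (h : Nat.card G = 720) (P : Sylow 3 G) :
    Nat.card (Nz (P : Subgroup G)) * Nat.card (Sylow 3 G) = 720 := by
  have := P9_fact3
  rw [Sylow.card_eq_index_normalizer P]
  exact (Subgroup.card_mul_index (Nz (P : Subgroup G))).trans h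

end Cfsg.Agent.Lib.Helper74.O720
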