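import Mathlib
import Cfsg.Agent.Lib.Helper74.O720.Defs
import Cfsg.Agent.Lib.Helper20.O720.P9
import Cfsg.Agent.Lib.Helper50.O720.A40

set_option autoImplicit false
set_option linter.unusedSectionVars false

namespace Cfsg.Agent.Lib.Helper74.O720

variable {G : Type*} [Group G] [Finite G] [IsSimpleGroup G]

/-- [D3] `n ∈ P` centralizes `D`, `n ∈ Nz P \ P` inverts it (A40). -/
theorem D3 (h : Nat.card G = 720) (h40 : Nat.card (Sylow 3 G) = 40) (P : Sylow 3 G) (D : Subgroup G)
    (hD : D ≤ (P : Subgroup G)) : Nz (P : Subgroup G) ≤ Nz D := by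
  intro n hn
  apply mem_Nz_of_cj_eq
  have hle : cj n D ≤ D := by
    rintro _ ⟨x, hx, rfl⟩
    show n * x * n⁻¹ ∈ D
    by_cases hnP : n ∈ (P : Subgroup G)
    · have h1 : n * x = x * n := comm_P h P n hnP x (hD hx)
      have h2 : n * x * n⁻¹ = x := by rw [h1]; group
      rw [h2]; exact hx
    · rw [A40 h h40 P n hn hnP x (hD hx)]
      exact D.inv_mem hx
  exact Subgroup.eq_of_le_of_card_ge hle (card_cj n D).ge

end Cfsg.Agent.Lib.Helper74.O720
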