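import Mathlib
import Cfsg.Agent.Lib.Helper74.O720.Defs
import Cfsg.Agent.Lib.Helper20.O720.P9

set_option autoImplicit false
set_option linter.unusedSectionVars false

namespace Cfsg.Agent.Lib.Helper74.O720

variable {G : Type*} [Group G] [Finite G] [IsSimpleGroup G]

/-- [SY] Sylow 3 `Q₀` of `↥K` containing `D.subgroupOf K` (`IsPGroup.exists_le_sylow`); its image in `G` has order `9` (`9 ∣ |K| ∣ 720`), so is a Sylow 3 of `G` (`Sylow.ofCard`). -/
theorem SY (h : Nat.card G = 720) (K D : Subgroup G) (h9 : 9 ∣ Nat.card K) (hD : D ≤ K) (hD3 : IsPGroup 3 D) :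
    ∃ P' : Sylow 3 G, D ≤ (P' : Subgroup G) ∧ (P' : Subgroup G) ≤ K := by
  have := P9_fact3
  have hK0 : Nat.card K ≠ 0 := Nat.card_pos.ne'
  have hDK : IsPGroup 3 (D.subgroupOf K) := hD3.comap_subtype
  obtain ⟨Q₀, hQ₀⟩ := hDK.exists_le_sylow
  have hk1 : 2 ≤ (Nat.card K).factorization 3 :=
    (Nat.Prime.pow_dvd_iff_le_factorization Nat.prime_three hK0).mp (by norm_num; exact h9)
  have hdvd : Nat.card K ∣ 720 := h ▸ Subgroup.card_subgroup_dvd_card K
  have hk2 : (Nat.card K).factorization 3 ≤ 2 := by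
    have := (Nat.factorization_le_iff_dvd hK0 (by norm_num)).mpr hdvd 3
    rwa [P9_fac] at this
  have hk : (Nat.card K).factorization 3 = 2 := le_antisymm hk2 hk1
  have hcard : Nat.card ((Q₀ : Subgroup K).map K.subtype) = 3 ^ (Nat.card G).factorization 3 := by
    rw [Subgroup.card_map_of_injective K.subtype_injective, Sylow.card_eq_multiplicity, hk, h, P9_fac]
  refine ⟨Sylow.ofCard _ hcard, ?_, ?_⟩
  · rw [Sylow.coe_ofCard]
    intro d hd
    exact ⟨⟨d, hD hd⟩, hQ₀ (Subgroup.mem_subgroupOf.mpr hd), rfl⟩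
  · rw [Sylow.coe_ofCard]
    rintro _ ⟨x, _, rfl⟩
    exact x.2

end Cfsg.Agent.Lib.Helper74.O720
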